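import Cfsg.Agent.H446.OZ.Lib
import Cfsg.Agent.H49.ThFiveDat

/-!
# The elements of order 10 of the Thompson group (helper446, S4842)

`y t`, `y` of order 5 and `t` an involution with `y t = t y`: all such pairs are conjugate, so `y t` is rational, and
`|C(y t)| ≤ 120`.
-/

set_option autoImplicit false
set_option maxRecDepth 100000
set_option linter.unusedSectionVars false

namespace Cfsg.Agent.H446.OZ.Th

open Subgroup Cfsg
open Cfsg.Agent.Th.Base Cfsg.Agent.Th.Word Cfsg.Agent.Th.RelWords Cfsg.Agent.Th.PermTab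
  Cfsg.Agent.Th.KOracle Cfsg.Agent.Th.KPerm Cfsg.Agent.Th.NineAct Cfsg.Agent.Th.CStruct
  Cfsg.Agent.Th.COracleDef Cfsg.Agent.Th.COracleSound
open Cfsg.Agent.KFacts.Th.Mask Cfsg.Agent.KFacts.Th.Struct
open Cfsg.Agent.Th.IndexUpper (gTh)
open Cfsg.Agent.CpAutTh.Data Cfsg.Agent.CpAutTh.Alt Cfsg.Agent.CpAutTh.RankOne Cfsg.Agent.CpAutTh.Local
  Cfsg.Agent.CpAutTh.ThreePerm Cfsg.Agent.CpAutTh.ThreeE
open Cfsg.Agent.CpAutTh.Mid Cfsg.Agent.BpSpor.ThCent Cfsg.Agent.BpSpor.ThThree Cfsg.Agent.ThFive Cfsg.Agent.ThFive.Five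

universe u

section

variable {G : Type u} [Group G] {γ : ℕ → G} (h : Ctx γ)
  {f : sub γ isC →* alternatingGroup (Fin 9)} (F : Epi γ f)
include h F

theorem card_ker_five : Nat.card ↥(psi h c5 f).ker ≤ 2 := by
  have := h.fin
  have h1 : (psi h c5 f).ker ≤ zpowers (⟨sx h c5, mem_centralizer_singleton_iff.2 rfl⟩ : ↥(centralizer ({sx h c5} : Set _))) := by
    intro y hy
    have h2 := (mem_ker_psi h F c5).1 hy
    have h3 := mem_centralizer_singleton_iff.1 (y : ↥(centralizer ({ev γ X5} : Set G))).2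
    rcases inv_ker h chk5 fix5 h2 h3 with h4 | h4
    · have h5 : y = 1 := Subtype.ext (Subtype.ext h4)
      rw [h5]
      exact one_mem _
    · have h5 : y = ⟨sx h c5, mem_centralizer_singleton_iff.2 rfl⟩ := Subtype.ext (Subtype.ext h4)
      rw [h5]
      exact mem_zpowers _
  refine (Subgroup.card_le_of_le h1).trans (le_of_eq ?_)
  rw [Nat.card_zpowers, Subgroup.orderOf_mk, order_sx]

theorem card_sx_le : Nat.card ↥(centralizer ({sx h c5} : Set ↥(centralizer ({ev γ X5} : Set G)))) ≤ 120 := by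
  have := h.fin
  rw [← card_mul_index (psi h c5 f).ker, index_ker, range_card5 h F]
  have := card_ker_five h F
  omega

/-- `|C(x γ₁)| ≤ 120` -/
theorem card_ten_le (hx : orderOf (ev γ X5) = 5) : Nat.card ↥(centralizer ({ev γ X5 * γ 1} : Set G)) ≤ 120 := by
  have := h.fin
  refine le_trans ?_ (card_sx_le h F)
  have hc : Commute (γ 1) (ev γ X5) := (h.mem_C.1 (ev_mem_sub c5)).symm
  have h1 : γ 1 ^ 2 = 1 := by rw [pow_two]; exact h.aa
  have h5 : ev γ X5 ^ 5 = 1 := by rw [← hx, pow_orderOf_eq_one]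
  have e6 : (ev γ X5 * γ 1) ^ 6 = ev γ X5 := by
    rw [hc.symm.mul_pow, show (6 : ℕ) = 5 + 1 from rfl, pow_succ, h5, one_mul, show 5 + 1 = 2 * 3 from rfl, pow_mul, h1,
      one_pow, mul_one]
  have e5 : (ev γ X5 * γ 1) ^ 5 = γ 1 := by
    rw [hc.symm.mul_pow, h5, one_mul, show (5 : ℕ) = 2 * 2 + 1 from rfl, pow_succ, pow_mul, h1, one_pow, one_mul]
  have key : ∀ g : G, g ∈ centralizer ({ev γ X5 * γ 1} : Set G) → g * ev γ X5 = ev γ X5 * g ∧ g * γ 1 = γ 1 * g := by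
    intro g hg
    have h2 : Commute g (ev γ X5 * γ 1) := mem_centralizer_singleton_iff.1 hg
    have h3 := h2.pow_right 6
    have h4 := h2.pow_right 5
    rw [e6] at h3
    rw [e5] at h4
    exact ⟨h3, h4⟩
  refine Nat.card_le_card_of_injective (fun g => ⟨⟨(g : G), mem_centralizer_singleton_iff.2 (key g g.2).1⟩, ?_⟩) ?_
  · rw [mem_centralizer_singleton_iff]
    exact Subtype.ext (key g g.2).2
  · intro a b hab
    have h2 := congrArg (fun z : ↥(centralizer ({sx h c5} : Set ↥(centralizer ({ev γ X5} : Set G)))) =>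
      ((z : ↥(centralizer ({ev γ X5} : Set G))) : G)) hab
    exact Subtype.ext h2

end

/-- **The elements of order 10.** -/
theorem exists_ten : ∃ y t : Spor.Th, orderOf y = 5 ∧ orderOf t = 2 ∧ y * t = t * y ∧
    Nat.card ↥(centralizer ({y * t} : Set Spor.Th)) ≤ 120 ∧ Ratl (y * t) := by
  have h := Cfsg.Agent.KFacts.Th.Main.ctx
  have hfin := h.fin
  obtain ⟨f, F⟩ := exists_epi h
  have h2F : Fact (Nat.Prime 2) := ⟨Nat.prime_two⟩
  have hcard : Nat.card Spor.Th = 90745943887872000 := h.card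
  have pair : ∀ u s : Spor.Th, orderOf u = 5 → orderOf s = 2 → s * u = u * s →
      ∃ g : Spor.Th, g * s * g⁻¹ = gTh 1 ∧ g * u * g⁻¹ = ev gTh X5 := by
    intro u s hu hs hsu
    exact exists_pair h hone hu hs hsu (P := fun z => z = ev gTh X5) (fun y hy => by
      obtain ⟨c, hc⟩ := exists_rep_five h F hy
      exact ⟨c, congrArg Subtype.val hc⟩)
  have oy : orderOf (ev gTh X5) = 5 := by
    have h1 := o5 h F
    rwa [Subgroup.orderOf_mk] at h1
  have ot : orderOf (gTh 1) = 2 := MonsterX.ThOneClass.orderOf_a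
  have hc : gTh 1 * ev gTh X5 = ev gTh X5 * gTh 1 := (h.mem_C.1 (ev_mem_sub c5)).symm
  refine ⟨ev gTh X5, gTh 1, oy, ot, hc.symm, card_ten_le h F oy, ?_⟩
  intro m hm
  have hm2 : m.Coprime 2 := Nat.Coprime.coprime_dvd_right (by rw [hcard]; norm_num) hm
  have hm5 : m.Coprime 5 := Nat.Coprime.coprime_dvd_right (by rw [hcard]; norm_num) hm
  have h1 : orderOf (ev gTh X5 ^ m) = 5 := by
    rw [Nat.Coprime.orderOf_pow (by rw [oy]; exact hm5.symm), oy]
  have h2 : orderOf (gTh 1 ^ m) = 2 := by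
    rw [Nat.Coprime.orderOf_pow (by rw [ot]; exact hm2.symm), ot]
  have hcm : Commute (gTh 1) (ev gTh X5) := hc
  obtain ⟨g, hg1, hg2⟩ := pair _ _ h1 h2 (hcm.pow_pow m m)
  rw [hcm.symm.mul_pow, isConj_iff]
  refine ⟨g, ?_⟩
  calc g * (ev gTh X5 ^ m * gTh 1 ^ m) * g⁻¹ = (g * ev gTh X5 ^ m * g⁻¹) * (g * gTh 1 ^ m * g⁻¹) := by
        simp only [mul_assoc, inv_mul_cancel_left]
    _ = ev gTh X5 * gTh 1 := by rw [hg1, hg2]

end Cfsg.Agent.H446.OZ.Th
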